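import Mathlib
import Cfsg.Agent.Lib.Solv.Huppert
import Cfsg.Agent.Lib.Char.BurnsidePQ

/-!
# Groups whose maximal subgroups have index a prime or the square of a prime
-/

set_option autoImplicit false

namespace H82

open Subgroup

theorem solvable_of_coatom_sq (n : ℕ) : ∀ (G : Type*) [Group G] [Finite G], Nat.card G = n →
    (∀ M : Subgroup G, IsCoatom M → ∃ p : ℕ, p.Prime ∧ (M.index = p ∨ M.index = p ^ 2)) →
    Group.IsSolvable G := by
  induction n using Nat.strong_induction_on with
  | _ n ih =>
  intro G _ _ hn h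
  rcases subsingleton_or_nontrivial G with hG | hG
  · infer_instance
  obtain ⟨p, hp, hdvd, hmax⟩ := H21.exists_max_prime_dvd (Finite.one_lt_card (α := G))
  by_cases h3 : p ≤ 3
  · refine H8.isSolvable_of_two_primes Nat.prime_two Nat.prime_three fun r hr hd => ?_
    have := hmax r hr hd
    have := hr.two_le
    omega
  have := Fact.mk hp
  obtain ⟨P⟩ : Nonempty (Sylow p G) := inferInstance
  have : (P : Subgroup G).Normal := by
    rw [← normalizer_eq_top_iff]
    refine (eq_top_or_exists_le_coatom _).resolve_right fun ⟨M, hM, h1⟩ => ?_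
    have h2 := H21.index_modEq_one_of_normalizer_le P h1
    obtain ⟨q, hq, h4⟩ := h M hM
    have h5 : q ^ 2 ≡ 1 [MOD p] := by
      rcases h4 with h4 | h4 <;> rw [h4] at h2
      exacts [h2.pow 2, h2]
    have h6 := hmax q hq (Dvd.dvd.trans (h4.elim (fun e => e ▸ dvd_rfl)
      fun e => e ▸ dvd_pow_self q two_ne_zero) M.index_dvd_card)
    have h7 := hq.two_le
    have h8 := (Nat.modEq_iff_dvd' (Nat.one_le_pow _ _ hq.pos)).1 h5.symm
    rw [show q ^ 2 - 1 = (q + 1) * (q - 1) from Nat.sq_sub_sq q 1, hp.dvd_mul] at h8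
    rcases h8 with h8 | h8
    · rcases h6.lt_or_eq with h6 | rfl
      · have := Nat.le_of_dvd (by omega) h8
        rcases hp.eq_two_or_odd with h9 | h9 <;> rcases hq.eq_two_or_odd with h9 | h9 <;> omega
      · exact hp.not_dvd_one ((Nat.dvd_add_right dvd_rfl).1 h8)
    · have := Nat.le_of_dvd (by omega) h8
      omega
  have := P.isPGroup'.isNilpotent
  refine (Group.isSolvable_iff_subgroup_quotient (P : Subgroup G)).2 ⟨inferInstance,
    ih _ (hn ▸ H21.card_quotient_lt (P.ne_bot_of_dvd_card hdvd)) _ rfl fun M hM => ?_⟩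
  rw [← index_comap_of_surjective M (QuotientGroup.mk'_surjective _)]
  exact h _ (isCoatom_comap_of_surjective (QuotientGroup.mk'_surjective _) hM)

end H82
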