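import Mathlib
import Cfsg.Agent.Lib.Syl2.PronGL2
import Cfsg.Agent.Lib.SL2Elt.Sylow

/-!
# The normaliser of a quaternion subgroup of `GL₂`
-/

set_option autoImplicit false

namespace H82

open Subgroup Matrix H64.SL2
open scoped MatrixGroups commutatorElement

variable {F : Type*} [Field F]

theorem exists_q8_gens (h2 : (2 : F) ≠ 0) {R : Subgroup (GL (Fin 2) F)}
    (e : R ≃* QuaternionGroup 2) : ∃ a b : SL(2, F), tr a = 0 ∧ tr b = 0 ∧ a * b = -(b * a) ∧
      SpecialLinearGroup.toGL a ∈ R ∧ SpecialLinearGroup.toGL b ∈ R ∧ ∀ x ∈ R, ∃ i : ℕ,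
        x = SpecialLinearGroup.toGL a ^ i ∨
          x = SpecialLinearGroup.toGL a ^ i * SpecialLinearGroup.toGL b := by
  let j := R.subtype.comp e.symm.toMonoidHom
  have hj : Function.Injective j := R.subtype_injective.comp e.symm.injective
  have h1 : j (.a 2) = -1 := (GL2_eq_of_sq h2 (by
    rw [show QuaternionGroup.a 2 = ⁅(QuaternionGroup.a 1 : QuaternionGroup 2), .xa 0⁆ by decide,
      MonoidHom.mem_ker, map_commutatorElement, map_commutatorElement,
      commutatorElement_eq_one_iff_mul_comm, mul_comm]) (by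
        rw [← map_pow, ← map_one j]; congr 1)).resolve_left
    fun h => absurd (hj (h.trans (map_one j).symm)) (by decide)
  have key : ∀ x y : QuaternionGroup 2, x * x = .a 2 → y * x * y⁻¹ = .a 2 * x →
      ∃ a : SL(2, F), tr a = 0 ∧ SpecialLinearGroup.toGL a = j x := fun x y h3 h4 => by
    have h5 := congrArg (fun g => (j g).val 0 0) h3
    have h6 := congrArg (fun g => (j g).val.trace) h4
    simp only [map_mul, map_inv, h1, Units.val_mul, Units.val_neg, Units.val_one, neg_mul, one_mul,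
      trace_neg] at h5 h6
    rw [trace_mul_comm, ← mul_assoc, Units.inv_mul, one_mul, trace_fin_two] at h6
    have h7 : (j x).val 0 0 + (j x).val 1 1 = 0 :=
      (mul_eq_zero.1 (by linear_combination h6)).resolve_left h2
    simp only [mul_apply, Fin.sum_univ_two, Matrix.neg_apply, one_apply_eq] at h5
    exact ⟨⟨(j x).val, by rw [det_fin_two]; linear_combination (j x).val 0 0 * h7 - h5⟩, h7,
      Units.ext rfl⟩
  obtain ⟨a, ha, ha'⟩ := key (.a 1) (.xa 0) (by decide) (by decide)
  obtain ⟨b, hb, hb'⟩ := key (.xa 0) (.a 1) (by decide) (by decide)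
  refine ⟨a, b, ha, hb, SpecialLinearGroup.toGL_injective ?_, ha' ▸ (e.symm _).2,
    hb' ▸ (e.symm _).2, fun x hx => ?_⟩
  · rw [← neg_one_mul (b * a), map_mul, map_mul, map_mul, ha', hb',
      show SpecialLinearGroup.toGL (-1 : SL(2, F)) = j (.a 2) from h1 ▸ Units.ext rfl, ← map_mul,
      ← map_mul, ← map_mul]
    congr 1
  · obtain ⟨i, hi⟩ := (by decide : ∀ y : QuaternionGroup 2, ∃ i : Fin 4,
      y = .a 1 ^ (i : ℕ) ∨ y = .a 1 ^ (i : ℕ) * .xa 0) (e ⟨x, hx⟩)
    have : x = j (e ⟨x, hx⟩) := by simp [j]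
    exact ⟨i, hi.imp (fun h => by rw [this, h, map_pow, ha']) fun h => by
      rw [this, h, map_mul, map_pow, ha', hb']⟩

theorem tr_sq_of_cube {x : SL(2, F)} (hx : x ∉ center SL(2, F)) (h : x ^ 3 ∈ center SL(2, F)) :
    tr x = 1 ∨ tr x = -1 := by
  rw [pow_three, mem_center_iff_entries] at h
  rw [mem_center_iff_entries] at hx
  have hd := det_eq x
  simp only [ent] at h
  refine mul_self_eq_one_iff.1 (by_contra fun h1 => hx ?_)
  have h2 := sub_ne_zero.2 h1
  simp only [tr] at h2
  exact ⟨mul_left_cancel₀ h2 (by linear_combination h.1 + x 0 1 * hd),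
    mul_left_cancel₀ h2 (by linear_combination h.2.1 + x 1 0 * hd),
    mul_left_cancel₀ h2 (by linear_combination h.2.2 + (x 0 0 - x 1 1) * hd)⟩

theorem comm_of_normalizes_q8 {G : Type*} [Group G] {R : Subgroup G} (hR : Nat.card R = 8) {z : G}
    (hz : z ∈ R) (hz1 : z ≠ 1) (hz' : z ∈ center G) {r : ℕ} [hr : Fact r.Prime] (h2 : r ≠ 2)
    (h3 : r ≠ 3) {y : G} (hy : y ∈ normalizer (R : Set G)) (h : y ^ r = 1) :
    ∀ a ∈ R, a * y = y * a := by
  have : Finite R := Nat.finite_of_card_ne_zero (by omega)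
  let φ := R.normalizerMonoidHom ⟨y, hy⟩
  have h1 := (IsPGroup.of_card_dvd_pow (G := zpowers φ) (n := 1) (by
    rw [Nat.card_zpowers, pow_one, orderOf_dvd_iff_pow_eq_one, ← map_pow,
      show (⟨y, hy⟩ : normalizer (R : Set G)) ^ r = 1 from Subtype.ext h, map_one])
    ).card_modEq_card_fixedPoints R
  have h4 : MulAction.fixedPoints (zpowers φ) R = (centralizer {y}).subgroupOf R := by
    ext a
    rw [SetLike.mem_coe, mem_subgroupOf, mem_centralizer_singleton_iff, eq_comm,
      ← mul_inv_eq_iff_eq_mul]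
    exact ⟨fun h => congrArg Subtype.val (h ⟨φ, mem_zpowers φ⟩), fun h g =>
      (zpowers_le (g := φ) (H := MulAction.stabilizer _ a)).2 (Subtype.ext h) g.2⟩
  rw [h4, hR, SetLike.coe_sort_coe] at h1
  have h5 := hR ▸ ((centralizer {y}).subgroupOf R).card_subgroup_dvd_card
  have h6 : 1 < Nat.card ((centralizer {y}).subgroupOf R) := (one_lt_card_iff_ne_bot _).2
    (ne_bot_iff_exists_ne_one.2 ⟨⟨⟨z, hz⟩, center_le_centralizer _ hz'⟩,
      fun h => hz1 (congrArg (fun x => x.1.1) h)⟩)
  have h7 : (centralizer {y}).subgroupOf R = ⊤ := eq_top_of_card_eq _ (by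
    have h8 := Nat.le_of_dvd (by omega) h5
    have h9 := (Nat.modEq_iff_dvd' h8).1 h1.symm
    generalize Nat.card ((centralizer {y}).subgroupOf R) = n at *
    have := hr.out.five_le_of_ne_two_of_ne_three h2 h3
    interval_cases n <;> try omega
    all_goals
      have := Nat.le_of_dvd (by omega) h9
      interval_cases r <;> first | omega | exact absurd hr.out (by decide))
  exact fun a ha => mem_centralizer_singleton_iff.1 (h7.ge (mem_top (⟨a, ha⟩ : R)))

end H82
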